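import Mathlib

/-! Self-dual binary codes of length 24 and minimum weight at least 8: cosets, the Steiner
system of the words of weight 8, spanning by those words, divisibility of weights by 4. -/

namespace Cfsg.Lib.Code.AbstractGolay

open Finset

local notation "V" => (Fin 24 → ZMod 2)

theorem eq_one_of_ne {a : ZMod 2} (h : a ≠ 0) : a = 1 := by revert a; decide

/-- The support of a vector. -/
def supp (v : V) : Finset (Fin 24) := univ.filter fun i => v i ≠ 0

/-- The indicator vector of a set. -/
def ind (s : Finset (Fin 24)) : V := fun i => if i ∈ s then 1 else 0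

theorem hammingNorm_eq (v : V) : hammingNorm v = (supp v).card := rfl

theorem mem_supp {v : V} {i : Fin 24} : i ∈ supp v ↔ v i ≠ 0 := by simp [supp]

theorem supp_ind (s : Finset (Fin 24)) : supp (ind s) = s := by
  ext i; simp [mem_supp, ind]

theorem ind_supp (v : V) : ind (supp v) = v := by
  funext i
  by_cases h : v i = 0
  · simp [ind, mem_supp, h]
  · simp [ind, mem_supp, eq_one_of_ne h]

theorem supp_add (u v : V) : supp (u + v) = symmDiff (supp u) (supp v) := by
  ext i
  simp only [mem_supp, Finset.mem_symmDiff, Pi.add_apply]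
  generalize u i = a
  generalize v i = b
  revert a b; decide

theorem dot_eq (u v : V) : ∑ i, u i * v i = ((supp u ∩ supp v).card : ZMod 2) := by
  have h : ∀ i, u i * v i = if i ∈ supp u ∩ supp v then (1 : ZMod 2) else 0 := by
    intro i
    simp only [mem_inter, mem_supp]
    generalize u i = a
    generalize v i = b
    revert a b; decide
  rw [Finset.sum_congr rfl fun i _ => h i, Finset.sum_boole, Finset.filter_univ_mem]

theorem add_self_eq (v : V) : v + v = 0 := by
  funext i; exact CharTwo.add_self_eq_zero _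

theorem sub_eq_add' (u v : V) : u - v = u + v := by
  funext i; exact CharTwo.sub_eq_add _ _

theorem card_symmDiff_add (s t : Finset (Fin 24)) :
    (symmDiff s t).card + 2 * (s ∩ t).card = s.card + t.card := by
  have h1 := Finset.card_sdiff_add_card_inter s t
  have h2 := Finset.card_sdiff_add_card_inter t s
  rw [Finset.inter_comm] at h2
  have h3 : (symmDiff s t).card = (s \ t).card + (t \ s).card := by
    rw [symmDiff_def, Finset.sup_eq_union, Finset.card_union_of_disjoint disjoint_sdiff_sdiff]
  omega

variable (C : Submodule (ZMod 2) V)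

/-- Two supports lie in the same coset of the code. -/
def Cong (s t : Finset (Fin 24)) : Prop := ind s + ind t ∈ C

theorem cong_refl (s : Finset (Fin 24)) : Cong C s s := by
  simp [Cong, add_self_eq]

theorem cong_symm {s t : Finset (Fin 24)} (h : Cong C s t) : Cong C t s := by
  rwa [Cong, add_comm]

theorem cong_trans {s t r : Finset (Fin 24)} (h : Cong C s t) (h' : Cong C t r) : Cong C s r := by
  have e : (ind s + ind t) + (ind t + ind r) = ind s + ind r := by
    rw [add_assoc (ind s), ← add_assoc (ind t), add_self_eq, zero_add]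
  rw [Cong, ← e]
  exact C.add_mem h h'

/-- Representatives of the cosets: at most three points, or four points through `x`. -/
def reps (x : Fin 24) : Finset (Finset (Fin 24)) :=
  (range 4).biUnion (fun k => (univ : Finset (Fin 24)).powersetCard k) ∪
    (((univ : Finset (Fin 24)).erase x).powersetCard 3).image (insert x)

theorem mem_reps {x : Fin 24} {v : Finset (Fin 24)} :
    v ∈ reps x ↔ v.card ≤ 3 ∨ (v.card = 4 ∧ x ∈ v) := by
  simp only [reps, mem_union, mem_biUnion, mem_range, mem_powersetCard, subset_univ, true_and, mem_image]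
  constructor
  · rintro (⟨k, hk, e⟩ | ⟨u, ⟨hu, hc⟩, rfl⟩)
    · left; omega
    · right
      have hx : x ∉ u := fun h => by simpa using hu h
      exact ⟨by rw [card_insert_of_notMem hx, hc], mem_insert_self _ _⟩
  · rintro (h | ⟨h, hx⟩)
    · exact Or.inl ⟨v.card, by omega, rfl⟩
    · exact Or.inr ⟨v.erase x, ⟨erase_subset_erase _ (subset_univ _),
        by rw [card_erase_of_mem hx, h]⟩, insert_erase hx⟩

theorem card_reps (x : Fin 24) : (reps x).card = 4096 := by
  rw [reps, card_union_of_disjoint, card_biUnion, card_image_of_injOn, card_powersetCard,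
    card_erase_of_mem (mem_univ x)]
  · simp only [card_powersetCard, card_univ, Fintype.card_fin]
    rfl
  · intro a ha b hb e
    simp only [mem_coe, mem_powersetCard] at ha hb
    have ha' : x ∉ a := fun h => by simpa using ha.1 h
    have hb' : x ∉ b := fun h => by simpa using hb.1 h
    rw [← erase_insert ha', ← erase_insert hb']
    exact congrArg (fun s => Finset.erase s x) e
  · intro a _ b _ hab
    exact disjoint_left.2 fun u hu hu' =>
      hab ((mem_powersetCard.1 hu).2.symm.trans (mem_powersetCard.1 hu').2)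
  · refine disjoint_left.2 fun u hu hu' => ?_
    simp only [mem_biUnion, mem_range, mem_powersetCard] at hu
    obtain ⟨k, hk, -, e⟩ := hu
    simp only [mem_image, mem_powersetCard] at hu'
    obtain ⟨w, ⟨hw, hc⟩, rfl⟩ := hu'
    have hx : x ∉ w := fun h => by simpa using hw h
    rw [card_insert_of_notMem hx, hc] at e
    omega

variable {C}
variable (hdim : Module.finrank (ZMod 2) C = 12) (horth : ∀ v ∈ C, ∀ w ∈ C, ∑ i, v i * w i = 0)
  (hmin : ∀ w ∈ C, w ≠ 0 → 8 ≤ hammingNorm w)

include hmin in
theorem small_weight {v : V} (hv : v ∈ C) (h : (supp v).card ≤ 7) : v = 0 := by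
  by_contra h0
  have := hmin v hv h0
  rw [hammingNorm_eq] at this
  omega

include hmin in
theorem cong_cases {s t : Finset (Fin 24)} (h : Cong C s t) (hs : s.card ≤ 4) (ht : t.card ≤ 4) :
    s = t ∨ (Disjoint s t ∧ s.card = 4 ∧ t.card = 4) := by
  have hsd : supp (ind s + ind t) = symmDiff s t := by rw [supp_add, supp_ind, supp_ind]
  by_cases h0 : ind s + ind t = 0
  · left
    rw [h0] at hsd
    have : supp (0 : V) = ∅ := by ext i; simp [mem_supp]
    rw [this, ← Finset.bot_eq_empty, eq_comm, symmDiff_eq_bot] at hsd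
    exact hsd
  · right
    have h8 := hmin _ h h0
    rw [hammingNorm_eq, hsd] at h8
    have := card_symmDiff_add s t
    refine ⟨?_, by omega, by omega⟩
    rw [disjoint_iff_inter_eq_empty, ← card_eq_zero]
    omega

include hdim hmin in
theorem exists_rep (x : Fin 24) (w : V) : ∃ r ∈ reps x, w + ind r ∈ C := by
  classical
  have hfin : Fintype (V ⧸ C) := Fintype.ofFinite _
  have hcard : Fintype.card (V ⧸ C) = 4096 := by
    rw [Module.card_eq_pow_finrank (K := ZMod 2), ZMod.card]
    have h := Submodule.finrank_quotient_add_finrank C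
    rw [hdim, Module.finrank_fintype_fun_eq_card, Fintype.card_fin] at h
    have : Module.finrank (ZMod 2) (V ⧸ C) = 12 := by omega
    rw [this]; norm_num
  let f : {r // r ∈ reps x} → V ⧸ C := fun r => Submodule.Quotient.mk (ind r.1)
  have hinj : Function.Injective f := by
    rintro ⟨a, ha⟩ ⟨b, hb⟩ e
    have e' : ind a - ind b ∈ C := (Submodule.Quotient.eq C).1 e
    rw [sub_eq_add'] at e'
    have ha' := mem_reps.1 ha
    have hb' := mem_reps.1 hb
    rcases cong_cases hmin (s := a) (t := b) e' (by omega) (by omega) with h | ⟨hd, ha4, hb4⟩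
    · exact Subtype.ext h
    · rcases ha' with h | ⟨-, hxa⟩
      · omega
      rcases hb' with h | ⟨-, hxb⟩
      · omega
      exact absurd hxb (disjoint_left.1 hd hxa)
  have hbij : Function.Bijective f := by
    rw [Fintype.bijective_iff_injective_and_card]
    exact ⟨hinj, by rw [hcard, Fintype.card_coe, card_reps]⟩
  obtain ⟨⟨r, hr⟩, e⟩ := hbij.2 (Submodule.Quotient.mk w)
  refine ⟨r, hr, ?_⟩
  have e' : ind r - w ∈ C := (Submodule.Quotient.eq C).1 e
  rwa [sub_eq_add', add_comm] at e'

include hdim hmin in
/-- Through every point outside a tetrad there is a congruent tetrad. -/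
theorem exists_tetrad {T : Finset (Fin 24)} (hT : T.card = 4) (x : Fin 24) :
    ∃ T', T'.card = 4 ∧ x ∈ T' ∧ Cong C T T' := by
  obtain ⟨r, hr, e⟩ := exists_rep hdim hmin x (ind T)
  rcases mem_reps.1 hr with h | ⟨h4, hx⟩
  · rcases cong_cases hmin (s := T) (t := r) e (by omega) (by omega) with h' | ⟨-, -, h'⟩
    · subst h'; omega
    · omega
  · exact ⟨r, h4, hx, e⟩

/-- An octad: the support of a word of weight 8. -/
def IsOctad (C : Submodule (ZMod 2) V) (O : Finset (Fin 24)) : Prop := ind O ∈ C ∧ O.card = 8

include hmin in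
theorem octad_of_cong {S T : Finset (Fin 24)} (h : Cong C S T) (hS : S.card = 4) (hT : T.card = 4)
    (hne : S ≠ T) : IsOctad C (S ∪ T) ∧ Disjoint S T := by
  rcases cong_cases hmin h hS.le hT.le with e | ⟨hd, -, -⟩
  · exact absurd e hne
  have e : supp (ind S + ind T) = S ∪ T := by
    rw [supp_add, supp_ind, supp_ind, Disjoint.symmDiff_eq_sup hd, Finset.sup_eq_union]
  refine ⟨⟨?_, by rw [card_union_of_disjoint hd, hS, hT]⟩, hd⟩
  rw [← e, ind_supp]
  exact h

include hdim hmin in
theorem exists_octad {s : Finset (Fin 24)} (hs : s.card = 5) : ∃ O, IsOctad C O ∧ s ⊆ O := by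
  obtain ⟨x, hx⟩ : s.Nonempty := card_pos.1 (by omega)
  have hT : (s.erase x).card = 4 := by rw [card_erase_of_mem hx, hs]
  obtain ⟨T', h4, hxT, hc⟩ := exists_tetrad hdim hmin hT x
  have hne : s.erase x ≠ T' := fun e => by rw [← e] at hxT; simp at hxT
  refine ⟨_, (octad_of_cong hmin hc hT h4 hne).1, fun y hy => ?_⟩
  by_cases e : y = x
  · subst e; exact mem_union_right _ hxT
  · exact mem_union_left _ (mem_erase.2 ⟨e, hy⟩)

include hmin in
theorem octad_unique {O O' s : Finset (Fin 24)} (hO : IsOctad C O) (hO' : IsOctad C O')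
    (hs : 5 ≤ s.card) (h : s ⊆ O) (h' : s ⊆ O') : O = O' := by
  have hsd : supp (ind O + ind O') = symmDiff O O' := by rw [supp_add, supp_ind, supp_ind]
  have hi : 5 ≤ (O ∩ O').card := hs.trans (card_le_card (subset_inter h h'))
  have hc := card_symmDiff_add O O'
  have h0 := small_weight hmin (C.add_mem hO.1 hO'.1) (by rw [hsd]; have := hO.2; have := hO'.2; omega)
  rw [h0] at hsd
  have : supp (0 : V) = ∅ := by ext i; simp [mem_supp]
  rw [this, ← Finset.bot_eq_empty, eq_comm, symmDiff_eq_bot] at hsd
  exact hsd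

/-- The tetrads congruent to `T`. -/
noncomputable def sextet (C : Submodule (ZMod 2) V) (T : Finset (Fin 24)) : Finset (Finset (Fin 24)) := by
  classical exact ((univ : Finset (Fin 24)).powersetCard 4).filter fun S => Cong C T S

theorem mem_sextet {T S : Finset (Fin 24)} : S ∈ sextet C T ↔ S.card = 4 ∧ Cong C T S := by
  classical
  simp [sextet, mem_powersetCard]

include hmin in
theorem sextet_disjoint {T S S' : Finset (Fin 24)} (hS : S ∈ sextet C T) (hS' : S' ∈ sextet C T)
    (hne : S ≠ S') : Disjoint S S' := by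
  obtain ⟨h4, hc⟩ := mem_sextet.1 hS
  obtain ⟨h4', hc'⟩ := mem_sextet.1 hS'
  exact (octad_of_cong hmin (cong_trans C (cong_symm C hc) hc') h4 h4' hne).2

include hdim hmin in
theorem card_sextet {T : Finset (Fin 24)} (hT : T.card = 4) : (sextet C T).card = 6 := by
  have hu : (sextet C T).biUnion id = univ := by
    refine eq_univ_iff_forall.2 fun x => ?_
    obtain ⟨S, h4, hx, hc⟩ := exists_tetrad hdim hmin hT x
    exact mem_biUnion.2 ⟨S, mem_sextet.2 ⟨h4, hc⟩, hx⟩
  have hd : ((sextet C T : Finset _) : Set (Finset (Fin 24))).PairwiseDisjoint id :=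
    fun a ha b hb hab => sextet_disjoint hmin ha hb hab
  have h := card_biUnion hd
  simp only [id] at h
  rw [hu, card_univ, Fintype.card_fin,
    Finset.sum_congr rfl (fun S (hS : S ∈ sextet C T) => (mem_sextet.1 hS).1),
    Finset.sum_const, smul_eq_mul] at h
  omega

include hdim hmin in
/-- A point of a small set lies in an octad meeting the set only there. -/
theorem exists_octad_single {u : Finset (Fin 24)} (hu : u.card ≤ 4) {a : Fin 24} (ha : a ∈ u) :
    ∃ O, IsOctad C O ∧ u ∩ O = {a} := by
  classical
  have h3 : 3 ≤ ((univ : Finset (Fin 24)) \ u).card := by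
    rw [card_univ_sdiff, Fintype.card_fin]; omega
  obtain ⟨R, hR, hR3⟩ := exists_subset_card_eq h3
  have haR : a ∉ R := fun h => (mem_sdiff.1 (hR h)).2 ha
  have hRu : ∀ i ∈ u, i ∉ R := fun i hi h => (mem_sdiff.1 (hR h)).2 hi
  set T := insert a R with hTdef
  have hT : T.card = 4 := by rw [hTdef, card_insert_of_notMem haR, hR3]
  have hTs : T ∈ sextet C T := mem_sextet.2 ⟨hT, cong_refl C T⟩
  have hex : ∃ S ∈ (sextet C T).erase T, Disjoint S u := by
    by_contra hne
    push Not at hne
    have hch : ∀ S ∈ (sextet C T).erase T, ∃ i, i ∈ S ∧ i ∈ u.erase a := by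
      intro S hS
      obtain ⟨i, hiS, hiu⟩ := not_disjoint_iff.1 (hne S hS)
      refine ⟨i, hiS, mem_erase.2 ⟨?_, hiu⟩⟩
      rintro rfl
      have hd := sextet_disjoint hmin (mem_of_mem_erase hS) hTs (ne_of_mem_erase hS)
      exact disjoint_left.1 hd hiS (mem_insert_self _ _)
    choose f hf1 hf2 using hch
    have hle : ((sextet C T).erase T).card ≤ (u.erase a).card := by
      refine card_le_card_of_injOn (fun S => if h : S ∈ (sextet C T).erase T then f S h else a)
        (fun S hS => by
          simp only [mem_coe] at hS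
          simp only [dif_pos hS]
          exact hf2 S hS) ?_
      intro S hS S' hS' e
      simp only [mem_coe] at hS hS'
      simp only [dif_pos hS, dif_pos hS'] at e
      by_contra hSS
      have hd := sextet_disjoint hmin (mem_of_mem_erase hS) (mem_of_mem_erase hS') hSS
      exact disjoint_left.1 hd (hf1 S hS) (e ▸ hf1 S' hS')
    rw [card_erase_of_mem hTs, card_sextet hdim hmin hT, card_erase_of_mem ha] at hle
    omega
  obtain ⟨S, hS, hdS⟩ := hex
  obtain ⟨h4, hc⟩ := mem_sextet.1 (mem_of_mem_erase hS)
  refine ⟨T ∪ S, (octad_of_cong hmin hc hT h4 (ne_of_mem_erase hS).symm).1, ?_⟩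
  ext i
  simp only [mem_inter, mem_union, hTdef, mem_insert, mem_singleton]
  constructor
  · rintro ⟨hi, (rfl | h) | h⟩
    · rfl
    · exact absurd h (hRu i hi)
    · exact absurd hi (disjoint_left.1 hdS h)
  · rintro rfl
    exact ⟨ha, Or.inl (Or.inl rfl)⟩

include hdim horth hmin in
theorem mem_of_orth_octads {v : V} (hv : ∀ O, IsOctad C O → ∑ i, v i * ind O i = 0) : v ∈ C := by
  obtain ⟨r, hr, e⟩ := exists_rep hdim hmin 0 v
  by_cases hr0 : r = ∅
  · subst hr0
    have : ind (∅ : Finset (Fin 24)) = 0 := by funext i; simp [ind]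
    rwa [this, add_zero] at e
  · exfalso
    obtain ⟨a, ha⟩ := nonempty_iff_ne_empty.2 hr0
    have hc : r.card ≤ 4 := by rcases mem_reps.1 hr with h | ⟨h, -⟩ <;> omega
    obtain ⟨O, hO, hOa⟩ := exists_octad_single hdim hmin hc ha
    have h1 := horth _ e _ hO.1
    simp only [Pi.add_apply, add_mul, Finset.sum_add_distrib, hv O hO, zero_add] at h1
    rw [dot_eq, supp_ind, supp_ind, hOa, card_singleton] at h1
    exact one_ne_zero (α := ZMod 2) (by simpa using h1)

include hdim horth hmin in
theorem span_octads : Submodule.span (ZMod 2) {w : V | w ∈ C ∧ hammingNorm w = 8} = C := by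
  classical
  set D := Submodule.span (ZMod 2) {w : V | w ∈ C ∧ hammingNorm w = 8} with hD
  have hDC : D ≤ C := Submodule.span_le.2 fun w hw => hw.1
  let L : V →ₗ[ZMod 2] (D →ₗ[ZMod 2] ZMod 2) :=
    LinearMap.mk₂ (ZMod 2) (fun (v : V) (d : D) => ∑ i, v i * (d : V) i)
      (fun a b d => by simp [add_mul, Finset.sum_add_distrib])
      (fun c a d => by simp [Finset.mul_sum, mul_assoc])
      (fun a d e => by simp [mul_add, Finset.sum_add_distrib])
      (fun c a d => by simp [Finset.mul_sum, mul_left_comm])
  have hker : LinearMap.ker L ≤ C := by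
    intro v hv
    rw [LinearMap.mem_ker] at hv
    refine mem_of_orth_octads hdim horth hmin fun O hO => ?_
    have hm : ind O ∈ D := Submodule.subset_span ⟨hO.1, by rw [hammingNorm_eq, supp_ind, hO.2]⟩
    exact LinearMap.congr_fun hv ⟨ind O, hm⟩
  refine Submodule.eq_of_le_of_finrank_le hDC ?_
  have h1 := LinearMap.finrank_range_add_finrank_ker L
  have h2 := Submodule.finrank_le (LinearMap.range L)
  have h3 := Submodule.finrank_mono hker
  have h4 : Module.finrank (ZMod 2) (D →ₗ[ZMod 2] ZMod 2) = Module.finrank (ZMod 2) D :=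
    Subspace.dual_finrank_eq
  rw [Module.finrank_fintype_fun_eq_card, Fintype.card_fin] at h1
  rw [hdim]
  omega

include hdim horth hmin in
theorem four_dvd {w : V} (hw : w ∈ C) : 4 ∣ (supp w).card := by
  have hw' : w ∈ Submodule.span (ZMod 2) {w : V | w ∈ C ∧ hammingNorm w = 8} := by
    rwa [span_octads hdim horth hmin]
  have key : w ∈ C ∧ 4 ∣ (supp w).card := by
    clear hw
    induction hw' using Submodule.span_induction with
    | mem x hx => exact ⟨hx.1, by rw [← hammingNorm_eq, hx.2]; norm_num⟩
    | zero => exact ⟨C.zero_mem, by simp [supp]⟩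
    | add x y _ _ hx hy =>
      refine ⟨C.add_mem hx.1 hy.1, ?_⟩
      have hev := horth x hx.1 y hy.1
      rw [dot_eq, ZMod.natCast_eq_zero_iff_even] at hev
      obtain ⟨k, hk⟩ := hev
      rw [supp_add]
      have := card_symmDiff_add (supp x) (supp y)
      obtain ⟨a, ha⟩ := hx.2
      obtain ⟨b, hb⟩ := hy.2
      omega
    | smul c x _ hx =>
      by_cases hc : c = 0
      · subst hc; simp [supp]
      · rw [eq_one_of_ne hc, one_smul]; exact hx
  exact key.2

end Cfsg.Lib.Code.AbstractGolay
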